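import Mathlib

/-!
There is no five-term block of a group of order 720 for the prime five with full normaliser.
-/

set_option autoImplicit false

namespace Cfsg.Agent.Lib.SmallSimple.Small1092.Degrees720

/-- The divisors of 720 congruent to `±1` modulo five and less than 27. -/
def degs : List ℕ := [4, 6, 9, 16, 24]

/-- The sign attached to a degree. -/
def sg (f : ℕ) : ℤ := if f % 5 = 1 then 1 else -1

/-- The possible orders of a centraliser. -/
def divs : List ℕ := [1, 2, 3, 4, 5, 6, 8, 9, 10, 12, 15, 16, 18, 20, 24, 30, 36, 40, 45, 48, 60, 72, 80, 90, 120, 144, 180, 240, 360, 720]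

/-- The remaining value, forced by the linear relation. -/
def last (a b c d : ℕ) (x y z : ℤ) : ℤ := -sg d * (1 + sg a * x + sg b * y + sg c * z)

/-- The check for given degrees and values. -/
def bad (a b c d : ℕ) (x y z w : ℤ) : Bool :=
  divs.any fun m => decide (1 + x * x + y * y + z * z + w * w ≤ (m : ℤ)) &&
      decide (720 * ((a * b * c * d : ℕ) + sg a * x * x * (b * c * d : ℕ) + sg b * y * y * (a * c * d : ℕ) +
          sg c * z * z * (a * b * d : ℕ) + sg d * w * w * (a * b * c : ℕ)) =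
        5 * ((m : ℤ) * m) * (a * b * c * d : ℕ))

/-- The values allowed at an involution. -/
def vals (f : ℕ) : List ℤ := (List.range (f / 2 + 1)).map fun (k : ℕ) => (f : ℤ) - 4 * k

/-- The sorted degree quadruples satisfying the linear relation. -/
def quads : List (ℕ × ℕ × ℕ × ℕ) := [(4, 4, 9, 16), (4, 6, 6, 9)]

theorem quads_complete : ∀ a ∈ degs, ∀ b ∈ degs, a ≤ b → ∀ c ∈ degs, b ≤ c → ∀ d ∈ degs, c ≤ d →
    1 + sg a * a + sg b * b + sg c * c + sg d * d = 0 → 1 + a * a + b * b + c * c + d * d ≤ 720 →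
    (a, b, c, d) ∈ quads := by decide +kernel

theorem check : quads.all (fun q => (vals q.1).all fun x => (vals q.2.1).all fun y =>
    (vals q.2.2.1).all fun z => (! (vals q.2.2.2).contains (last q.1 q.2.1 q.2.2.1 q.2.2.2 x y z)) ||
      ! bad q.1 q.2.1 q.2.2.1 q.2.2.2 x y z (last q.1 q.2.1 q.2.2.1 q.2.2.2 x y z)) = true := by
  decide +kernel

theorem divs_complete {m : ℕ} (h : m ∣ 720) : m ∈ divs := by
  rw [show 720 = 16 * 45 from rfl, Nat.dvd_mul] at h
  obtain ⟨a, b, ha, hb, rfl⟩ := h
  have key : ∀ a ∈ List.range 17, a ∣ 16 → ∀ b ∈ List.range 46, b ∣ 45 → a * b ∈ divs := by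
    decide +kernel
  exact key a (List.mem_range.2 (Nat.lt_succ_of_le (Nat.le_of_dvd (by norm_num) ha))) ha b
    (List.mem_range.2 (Nat.lt_succ_of_le (Nat.le_of_dvd (by norm_num) hb))) hb

theorem degs_complete : ∀ m ∈ List.range 27, m ∣ 720 → (m % 5 = 1 ∨ m % 5 = 4) → 1 < m → m ∈ degs := by
  decide +kernel

/-- No solutions. -/
theorem no_solution {a b c d m : ℕ} {x y z w : ℤ} (ha : a ∈ degs) (hb : b ∈ degs) (hc : c ∈ degs)
    (hd : d ∈ degs) (hab : a ≤ b) (hbc : b ≤ c) (hcd : c ≤ d)
    (hx : x ∈ vals a) (hy : y ∈ vals b) (hz : z ∈ vals c) (hw : w ∈ vals d)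
    (hm : m ∈ divs) (h1 : 1 + sg a * a + sg b * b + sg c * c + sg d * d = 0)
    (h2 : 1 + a * a + b * b + c * c + d * d ≤ 720)
    (h3 : 1 + sg a * x + sg b * y + sg c * z + sg d * w = 0)
    (h4 : 1 + x * x + y * y + z * z + w * w ≤ (m : ℤ))
    (h5 : 720 * ((a * b * c * d : ℕ) + sg a * x * x * (b * c * d : ℕ) + sg b * y * y * (a * c * d : ℕ) +
        sg c * z * z * (a * b * d : ℕ) + sg d * w * w * (a * b * c : ℕ)) =
      5 * ((m : ℤ) * m) * (a * b * c * d : ℕ)) : False := by
  have hq := quads_complete a ha b hb hab c hc hbc d hd hcd h1 h2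
  have h := check
  simp only [List.all_eq_true] at h
  have h' := h _ hq x hx y hy z hz
  have hsg : sg d * sg d = 1 := by unfold sg; split_ifs <;> norm_num
  have hlast : last a b c d x y z = w := by
    unfold last; linear_combination (-(sg d)) * h3 + w * hsg
  simp only [hlast] at h'
  have hbad : bad a b c d x y z w = true := by
    simp only [bad, Bool.and_eq_true, decide_eq_true_eq, List.any_eq_true]
    exact ⟨m, hm, h4, h5⟩
  rw [hbad, List.contains_iff_mem.2 hw] at h'
  simp at h'

end Cfsg.Agent.Lib.SmallSimple.Small1092.Degrees720
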