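import Mathlib

/-!
An arithmetical filter for the orders of non-abelian simple groups up to 1092.
-/

set_option autoImplicit false

namespace Cfsg.Agent.Lib.SmallSimple.Small1092

/-- Primality by trial division. -/
def isP (p : ℕ) : Bool := Nat.ble 2 p && (List.range p).all fun d => Nat.ble d 1 || !(p % d == 0)

theorem isP_sound {p : ℕ} (h : isP p = true) : p.Prime := by
  simp only [isP, Bool.and_eq_true, Nat.ble_eq, List.all_eq_true, List.mem_range, Bool.or_eq_true,
    Bool.not_eq_true', beq_eq_false_iff_ne] at h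
  rw [Nat.prime_def_lt]
  refine ⟨h.1, fun m hm hd => ?_⟩
  rcases h.2 m hm with h' | h'
  · have : m ≠ 0 := fun e => by rw [e, zero_dvd_iff] at hd; omega
    omega
  · exact absurd (Nat.mod_eq_zero_of_dvd hd) h'

/-- The smallest divisor from `d` on, with fuel. -/
def least : ℕ → ℕ → ℕ → ℕ
  | 0, _, n => n
  | k + 1, d, n => if n % d == 0 then d else if Nat.blt n (d * d) then n else least k (d + 1) n

/-- The exponent, with fuel, and what remains. -/
def strip : ℕ → ℕ → ℕ → ℕ × ℕ
  | 0, _, n => (0, n)
  | k + 1, p, n => if n % p == 0 then ((strip k p (n / p)).1 + 1, (strip k p (n / p)).2) else (0, n)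

/-- Prime powers in the order, with fuel. -/
def facs : ℕ → ℕ → List (ℕ × ℕ)
  | 0, _ => []
  | k + 1, n => if Nat.ble n 1 then [] else
      (least 40 2 n, (strip 11 (least 40 2 n) n).1) :: facs k (strip 11 (least 40 2 n) n).2

/-- The shapes excluded by the general theorems. -/
def shape (n : ℕ) : List (ℕ × ℕ) → Bool
  | [(p, a)] => isP p && n == p ^ a
  | [(p, a), (q, b)] => isP p && isP q && n == p ^ a * q ^ b
  | [(p, a), (q, b), (r, c)] =>
      isP p && isP q && isP r && !(p == q) && !(p == r) && !(q == r) && n == p ^ a * q ^ b * r ^ c &&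
        ((a == 1 && b == 1) || (a == 1 && c == 1) || (b == 1 && c == 1) ||
          (((p == 2 && a == 2) || (p == 3 && a == 1)) && (Nat.ble b 2 || Nat.ble c 2)) ||
          (((q == 3 && b == 1)) && (Nat.ble a 2 || Nat.ble c 2)))
  | _ => false

/-- The orders left. -/
def rest : List ℕ := [60, 168, 360, 420, 504, 660, 720, 780, 792, 840, 924, 936, 1008, 1020, 1080, 1092]

/-- An order ruled out by general theorems, or in the list. -/
def ok (n : ℕ) : Bool :=
  (n % 2 == 0 && !(n % 12 == 0) && !(n % 16 == 0) && !(n % 56 == 0)) || rest.contains n || shape n (facs 6 n)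

theorem ok_all : ((List.range 1091).all fun n => ok (n + 2)) = true := by decide +kernel

theorem ok_of_le {n : ℕ} (h1 : 2 ≤ n) (h2 : n ≤ 1092) : ok n = true := by
  have h := List.all_eq_true.1 ok_all (n - 2) (List.mem_range.2 (by omega))
  rwa [show n - 2 + 2 = n by omega] at h

end Cfsg.Agent.Lib.SmallSimple.Small1092
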