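import Cfsg.Agent.Lib.SmallSimple.Small1092.Setup
import Cfsg.Agent.Lib.SmallSimple.Small1092.Degrees720
import Cfsg.Agent.Lib.SmallSimple.FullNormalizer

/-!
There is no simple group of order 720.
-/

set_option autoImplicit false

namespace Cfsg.Agent.Lib.SmallSimple.Small1092

open Subgroup Cfsg.Agent.Lib.SmallSimple.FixCount
open Cfsg

variable {G : Type*} [Group G] [Finite G] [IsSimpleGroup G]

set_option maxHeartbeats 1000000 in
theorem ne_720 (hG : ¬ IsMulCommutative G) : Nat.card G ≠ 720 := by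
  intro h
  haveI : Fact (Nat.Prime 5) := ⟨by norm_num⟩
  haveI : Fact (Nat.Prime 2) := ⟨Nat.prime_two⟩
  obtain ⟨Q, k, i, hP, hk, hk1, hk2, hk3, hks, hidx, hNk, hNC, hi, hi1, h5C⟩ :=
    setup (p := 5) (m := 144) hG h (by norm_num) (by norm_num)
  have key : ∀ k ∈ Nat.divisors 144, k % 5 = 1 → k ≤ 1 ∨ k = 6 ∨ k = 16 ∨ k = 36 := by decide +kernel
  have hile := Nat.le_of_dvd (by norm_num) hi
  rcases (key k (Nat.mem_divisors.2 ⟨hk, by norm_num⟩) hk1).resolve_left (by omega) with rfl | rfl | rfl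
  · norm_num [Nat.factorial] at hk3
  · interval_cases i <;> omega
  set P : Subgroup G := (Q : Subgroup G) with hPdef
  set N := normalizer (P : Set G) with hNdef
  set C := centralizer (P : Set G) with hCdef
  have hN20 : Nat.card N = 20 := by omega
  haveI : IsCyclic P := isCyclic_of_prime_card hP
  have hPC : P ≤ C := le_centralizer _
  have hi' : i = 2 ∨ i = 4 := by interval_cases i <;> omega
  rcases hi' with rfl | rfl
  · have hC10 : Nat.card C = 5 * 2 := by omega
    obtain ⟨⟨c, hcC⟩, hc⟩ := exists_prime_orderOf_dvd_card' (G := C) 2 (by rw [hC10]; norm_num)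
    rw [orderOf_mk] at hc
    have hNt : N ≠ ⊤ := fun e => by rw [e, index_top] at hidx; omega
    have hsq : ¬ 5 ^ 2 ∣ Nat.card G := by rw [h]; norm_num
    obtain ⟨h10, hpos, hf, hsum⟩ := moved hsq hP hNt Nat.prime_two (by norm_num) hc hcC
    have h4 := Cfsg.Agent.S1016.four_dvd_moved hG _ hc hpos
    change 5 * 2 ∣ Nat.card {ω : G ⧸ N // c • ω ≠ ω} at h10
    change 0 < Nat.card {ω : G ⧸ N // c • ω ≠ ω} at hpos
    change 0 < Nat.card {ω : G ⧸ N // c • ω = ω} at hf
    change 4 ∣ Nat.card {ω : G ⧸ N // c • ω ≠ ω} at h4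
    change Nat.card {ω : G ⧸ N // c • ω ≠ ω} + Nat.card {ω : G ⧸ N // c • ω = ω} = N.index at hsum
    rw [hidx] at hsum
    have hf16 : Nat.card {ω : G ⧸ N // c • ω = ω} = 16 := by omega
    have hc2 : c * c = 1 := by rw [← pow_two, ← hc, pow_orderOf_eq_one]
    have hj : ∀ x : {x : G // x ∈ N ∧ IsConj c x}, x.1 = c := by
      rintro ⟨x, hxN, hcx⟩
      have hxC := conj_mem_centralizer_of_fixed hsq (by norm_num) hP hc2 (by rw [hidx, hf16]; norm_num) hxN hcx
      have hxo : orderOf x = 2 := by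
        obtain ⟨g, rfl⟩ := isConj_iff.1 hcx
        rw [← MulAut.conj_apply, MulEquiv.orderOf_eq, hc]
      obtain ⟨j, hj⟩ := mem_zpowers_iff.1
        (mem_zpowers_of_prime_mul (by norm_num) hC10 hP hPC le_rfl hcC hc hxC hxo)
      rcases Int.even_or_odd' j with ⟨l, rfl | rfl⟩
      · exfalso
        rw [zpow_mul, zpow_ofNat, pow_two, hc2, one_zpow] at hj
        rw [← hj, orderOf_one] at hxo
        norm_num at hxo
      · show x = c
        rw [← hj, zpow_add, zpow_mul, zpow_ofNat, pow_two, hc2, one_zpow, one_mul, zpow_one]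
    have hj1 : Nat.card {x : G // x ∈ N ∧ IsConj c x} ≤ 1 := by
      rw [Finite.card_le_one_iff_subsingleton]
      exact ⟨fun x y => Subtype.ext ((hj x).trans (hj y).symm)⟩
    have hcount := card_fixed_mul N c
    rw [hf16, hN20] at hcount
    have hd := h ▸ (centralizer ({c} : Set G)).card_subgroup_dvd_card
    interval_cases hq : Nat.card {x : G // x ∈ N ∧ IsConj c x}
    · omega
    · rw [show Nat.card (centralizer ({c} : Set G)) = 320 by omega] at hd
      norm_num at hd
  · -- self-centralising, normaliser of order twenty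
    have hC5 : Nat.card C = 5 := by omega
    have hCP : C = P := (eq_of_le_of_card_ge hPC (by rw [hC5, hP])).symm
    obtain ⟨t₀, ht₀⟩ := exists_prime_orderOf_dvd_card' (G := N) 2 (by rw [hN20]; norm_num)
    letI := Fintype.ofFinite G
    obtain ⟨S, f, σ, u, hS, hprop, hf, hu, hf2, hu2, hcnt⟩ :=
      FullNormalizer.exists_degrees_full (commutator_eq_top hG) Q le_rfl hP hCP hN20 (t := (t₀ : G)) t₀.2
        (by rw [Subgroup.orderOf_coe, ht₀])
    classical
    let L := S.toList.mergeSort (fun x y => decide (f x ≤ f y))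
    have hperm : L.Perm S.toList := List.mergeSort_perm _ _
    have hlen : L.length = 4 := by rw [hperm.length_eq, Finset.length_toList, hS]
    have hsorted : L.Pairwise (fun x y => f x ≤ f y) := by
      refine List.Pairwise.imp (fun h => by simpa using h) (List.pairwise_mergeSort ?_ ?_ _)
      · intro x y z h1 h2; simp only [decide_eq_true_eq] at *; omega
      · intro x y; simp only [Bool.or_eq_true, decide_eq_true_eq]; omega
    obtain ⟨a, b, c, d, habcd⟩ : ∃ a b c d, L = [a, b, c, d] := by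
      rcases hL : L with _ | ⟨a, _ | ⟨b, _ | ⟨c, _ | ⟨d, _ | ⟨e, l⟩⟩⟩⟩⟩ <;>
        rw [hL] at hlen <;> simp at hlen
      exact ⟨a, b, c, d, rfl⟩
    rw [habcd] at hsorted hperm
    have hab : f a ≤ f b := (List.pairwise_cons.1 hsorted).1 b (by simp)
    have hbc : f b ≤ f c := (List.pairwise_cons.1 (List.pairwise_cons.1 hsorted).2).1 c (by simp)
    have hcd : f c ≤ f d :=
      (List.pairwise_cons.1 (List.pairwise_cons.1 (List.pairwise_cons.1 hsorted).2).2).1 d (by simp)
    have hsumZ : ∀ F : IrrCharacter G → ℤ, ∑ χ ∈ S, F χ = F a + (F b + (F c + F d)) := fun F => by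
      rw [← Finset.sum_map_toList, ← (hperm.map F).sum_eq]; simp
    have hsumN : ∀ F : IrrCharacter G → ℕ, ∑ χ ∈ S, F χ = F a + (F b + (F c + F d)) := fun F => by
      rw [← Finset.sum_map_toList, ← (hperm.map F).sum_eq]; simp
    have hsumQ : ∀ F : IrrCharacter G → ℚ, ∑ χ ∈ S, F χ = F a + (F b + (F c + F d)) := fun F => by
      rw [← Finset.sum_map_toList, ← (hperm.map F).sum_eq]; simp
    rw [hsumZ] at hf hu hu2
    rw [hsumN] at hf2
    rw [hsumQ] at hcnt
    rw [h] at hf2 hcnt
    have hmemS : ∀ {x}, x ∈ [a, b, c, d] → x ∈ S := fun hx => Finset.mem_toList.1 (hperm.subset hx)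
    have hdata : ∀ x ∈ [a, b, c, d], f x ≤ 26 → f x ∈ Degrees720.degs ∧ σ x = Degrees720.sg (f x) ∧
        u x ∈ Degrees720.vals (f x) := by
      intro x hx hle
      obtain ⟨hf1, hfd, hs, hcong, k, hk, hkle⟩ := hprop x (hmemS hx)
      refine ⟨Degrees720.degs_complete _ (List.mem_range.2 (by omega)) (h ▸ hfd) ?_ hf1, ?_,
        List.mem_map.2 ⟨k, List.mem_range.2 (by omega), hk.symm⟩⟩
      · rcases hs with hs | hs <;> rw [hs] at hcong <;> omega
      · unfold Degrees720.sg
        rcases hs with hs | hs <;> rw [hs] at hcong <;> split_ifs <;> omega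
    have hle : ∀ x ∈ [a, b, c, d], f x ≤ 26 := by
      intro x hx
      by_contra hgt
      have h27 : 27 ^ 2 ≤ f x ^ 2 := Nat.pow_le_pow_left (by omega) 2
      simp only [List.mem_cons, List.not_mem_nil, or_false] at hx
      rcases hx with rfl | rfl | rfl | rfl <;> omega
    obtain ⟨ha1, ha2, ha3⟩ := hdata a (by simp) (hle a (by simp))
    obtain ⟨hb1, hb2, hb3⟩ := hdata b (by simp) (hle b (by simp))
    obtain ⟨hc1, hc2, hc3⟩ := hdata c (by simp) (hle c (by simp))
    obtain ⟨hd1, hd2, hd3⟩ := hdata d (by simp) (hle d (by simp))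
    have hpos : ∀ x ∈ [a, b, c, d], (f x : ℚ) ≠ 0 := fun x hx =>
      Nat.cast_ne_zero.2 (by have := (hprop x (hmemS hx)).1; omega)
    have := hpos a (by simp); have := hpos b (by simp); have := hpos c (by simp); have := hpos d (by simp)
    rw [ha2, hb2, hc2, hd2] at hf hu hcnt
    set z := Nat.card (centralizer ({(t₀ : G)} : Set G))
    have hz : z ∣ 720 := h ▸ Subgroup.card_subgroup_dvd_card _
    refine Degrees720.no_solution (m := z) ha1 hb1 hc1 hd1 hab hbc hcd ha3 hb3 hc3 hd3
      (Degrees720.divs_complete hz)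
      (by linarith) (by nlinarith [hf2]) (by linarith) (by nlinarith [hu2]) ?_
    have hq : ((720 * ((f a * f b * f c * f d : ℕ) + Degrees720.sg (f a) * u a * u a * (f b * f c * f d : ℕ) +
        Degrees720.sg (f b) * u b * u b * (f a * f c * f d : ℕ) +
        Degrees720.sg (f c) * u c * u c * (f a * f b * f d : ℕ) +
        Degrees720.sg (f d) * u d * u d * (f a * f b * f c : ℕ)) : ℤ) : ℚ) =
        ((5 * ((z : ℤ) * z) * (f a * f b * f c * f d : ℕ) : ℤ) : ℚ) := by
      push_cast
      push_cast at hcnt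
      field_simp at hcnt
      linear_combination hcnt
    exact_mod_cast hq



end Cfsg.Agent.Lib.SmallSimple.Small1092
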