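import Cfsg.Agent.Lib.SmallSimple.Small1092.Setup

/-!
Orders up to 1092 excluded by Sylow counting and fixed cosets.
-/

set_option autoImplicit false

namespace Cfsg.Agent.Lib.SmallSimple.Small1092

open Subgroup Cfsg.Agent.Lib.SmallSimple.FixCount

variable {G : Type*} [Group G] [Finite G] [IsSimpleGroup G]

/-- No Sylow number. -/
theorem no_sylow_number (hG : ¬ IsMulCommutative G) :
    Nat.card G ≠ 780 ∧ Nat.card G ≠ 936 ∧ Nat.card G ≠ 1020 := by
  refine ⟨fun h => ?_, fun h => ?_, fun h => ?_⟩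
  · haveI : Fact (Nat.Prime 13) := ⟨by norm_num⟩
    obtain ⟨Q, k, i, -, hk, hk1, hk2, -⟩ := setup (p := 13) (m := 60) hG h (by norm_num) (by norm_num)
    have key : ∀ k ∈ Nat.divisors 60, k % 13 = 1 → k ≤ 1 := by decide +kernel
    have := key k (Nat.mem_divisors.2 ⟨hk, by norm_num⟩) hk1; omega
  · haveI : Fact (Nat.Prime 13) := ⟨by norm_num⟩
    obtain ⟨Q, k, i, -, hk, hk1, hk2, -⟩ := setup (p := 13) (m := 72) hG h (by norm_num) (by norm_num)
    have key : ∀ k ∈ Nat.divisors 72, k % 13 = 1 → k ≤ 1 := by decide +kernel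
    have := key k (Nat.mem_divisors.2 ⟨hk, by norm_num⟩) hk1; omega
  · haveI : Fact (Nat.Prime 17) := ⟨by norm_num⟩
    obtain ⟨Q, k, i, -, hk, hk1, hk2, -⟩ := setup (p := 17) (m := 60) hG h (by norm_num) (by norm_num)
    have key : ∀ k ∈ Nat.divisors 60, k % 17 = 1 → k ≤ 1 := by decide +kernel
    have := key k (Nat.mem_divisors.2 ⟨hk, by norm_num⟩) hk1; omega

/-- Twelve Sylow 11-subgroups. -/
theorem eleven (hG : ¬ IsMulCommutative G) : Nat.card G ≠ 792 ∧ Nat.card G ≠ 924 := by
  haveI : Fact (Nat.Prime 11) := ⟨by norm_num⟩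
  refine ⟨fun h => ?_, fun h => ?_⟩
  · obtain ⟨Q, k, i, hP, hk, hk1, hk2, -, hks, -, hNk, -⟩ := setup (p := 11) (m := 72) hG h (by norm_num) (by norm_num)
    have key : ∀ k ∈ Nat.divisors 72, k % 11 = 1 → k ≤ 1 ∨ k = 12 := by decide +kernel
    have hk12 := (key k (Nat.mem_divisors.2 ⟨hk, by norm_num⟩) hk1).resolve_left (by omega)
    subst hk12
    have := card_normalizer_dvd_of_card_sylow hG (by norm_num) Q hP hks.symm
    rw [show Nat.card (normalizer ((Q : Subgroup G) : Set G)) = 66 by omega] at this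
    norm_num at this
  · obtain ⟨Q, k, i, hP, hk, hk1, hk2, -, hks, -, hNk, -⟩ := setup (p := 11) (m := 84) hG h (by norm_num) (by norm_num)
    have key : ∀ k ∈ Nat.divisors 84, k % 11 = 1 → k ≤ 1 ∨ k = 12 := by decide +kernel
    have hk12 := (key k (Nat.mem_divisors.2 ⟨hk, by norm_num⟩) hk1).resolve_left (by omega)
    subst hk12
    have := card_normalizer_dvd_of_card_sylow hG (by norm_num) Q hP hks.symm
    rw [show Nat.card (normalizer ((Q : Subgroup G) : Set G)) = 77 by omega] at this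
    norm_num at this

/-- An involution centralising a Sylow 7-subgroup with fifteen conjugates. -/
theorem fifteen (hG : ¬ IsMulCommutative G) [Fact (Nat.Prime 7)] (hsq : ¬ 7 ^ 2 ∣ Nat.card G) (Q : Sylow 7 G)
    (hP : Nat.card (Q : Subgroup G) = 7) (hi : (normalizer ((Q : Subgroup G) : Set G)).index = 15)
    (h2 : 2 ∣ Nat.card (centralizer ((Q : Subgroup G) : Set G))) : False := by
  haveI : Fact (Nat.Prime 2) := ⟨Nat.prime_two⟩
  obtain ⟨⟨c, hcC⟩, hc⟩ := exists_prime_orderOf_dvd_card' (G := centralizer ((Q : Subgroup G) : Set G)) 2 h2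
  rw [orderOf_mk] at hc
  have hN : normalizer ((Q : Subgroup G) : Set G) ≠ ⊤ := fun e => by rw [e, index_top] at hi; omega
  obtain ⟨h14, hpos, hf, hsum⟩ := moved hsq hP hN Nat.prime_two (by norm_num) hc hcC
  have h4 := Cfsg.Agent.S1016.four_dvd_moved hG _ hc hpos
  omega

theorem ne_420 (hG : ¬ IsMulCommutative G) : Nat.card G ≠ 420 := by
  intro h
  haveI : Fact (Nat.Prime 7) := ⟨by norm_num⟩
  obtain ⟨Q, k, i, hP, hk, hk1, hk2, -, -, hidx, hNk, hNC, hi, hi1, -⟩ :=
    setup (p := 7) (m := 60) hG h (by norm_num) (by norm_num)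
  have key : ∀ k ∈ Nat.divisors 60, k % 7 = 1 → k ≤ 1 ∨ k = 15 := by decide +kernel
  have hk15 := (key k (Nat.mem_divisors.2 ⟨hk, by norm_num⟩) hk1).resolve_left (by omega)
  subst hk15
  have hile := Nat.le_of_dvd (by norm_num) hi
  refine fifteen hG (by rw [h]; norm_num) Q hP hidx ?_
  interval_cases i <;> omega

theorem ne_840 (hG : ¬ IsMulCommutative G) : Nat.card G ≠ 840 := by
  intro h
  haveI : Fact (Nat.Prime 7) := ⟨by norm_num⟩
  obtain ⟨Q, k, i, hP, hk, hk1, hk2, -, hks, hidx, hNk, hNC, hi, hi1, -⟩ :=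
    setup (p := 7) (m := 120) hG h (by norm_num) (by norm_num)
  have key : ∀ k ∈ Nat.divisors 120, k % 7 = 1 → k ≤ 1 ∨ k = 8 ∨ k = 15 ∨ k = 120 := by decide +kernel
  rcases (key k (Nat.mem_divisors.2 ⟨hk, by norm_num⟩) hk1).resolve_left (by omega) with rfl | rfl | rfl
  · have := card_normalizer_dvd_of_card_sylow hG (by norm_num) Q hP hks.symm
    rw [show Nat.card (normalizer ((Q : Subgroup G) : Set G)) = 105 by omega] at this
    norm_num at this
  · have hile := Nat.le_of_dvd (by norm_num) hi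
    refine fifteen hG (by rw [h]; norm_num) Q hP hidx ?_
    interval_cases i <;> omega
  · have hile := Nat.le_of_dvd (by norm_num) hi
    interval_cases i <;> omega

theorem ne_1008 (hG : ¬ IsMulCommutative G) : Nat.card G ≠ 1008 := by
  intro h
  haveI : Fact (Nat.Prime 7) := ⟨by norm_num⟩
  haveI : Fact (Nat.Prime 2) := ⟨Nat.prime_two⟩
  obtain ⟨Q, k, i, hP, hk, hk1, hk2, -, hks, hidx, hNk, hNC, hi, hi1, h7C⟩ :=
    setup (p := 7) (m := 144) hG h (by norm_num) (by norm_num)
  have key : ∀ k ∈ Nat.divisors 144, k % 7 = 1 → k ≤ 1 ∨ k = 8 ∨ k = 36 := by decide +kernel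
  rcases (key k (Nat.mem_divisors.2 ⟨hk, by norm_num⟩) hk1).resolve_left (by omega) with rfl | rfl
  · have := card_normalizer_dvd_of_card_sylow hG (by norm_num) Q hP hks.symm
    rw [show Nat.card (normalizer ((Q : Subgroup G) : Set G)) = 126 by omega] at this
    norm_num at this
  set P : Subgroup G := (Q : Subgroup G) with hPdef
  set N := normalizer (P : Set G) with hNdef
  set C := centralizer (P : Set G) with hCdef
  have hN28 : Nat.card N = 28 := by omega
  have hile := Nat.le_of_dvd (by norm_num) hi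
  have hC14 : Nat.card C = 7 * 2 := by interval_cases i <;> omega
  obtain ⟨⟨c, hcC⟩, hc⟩ := exists_prime_orderOf_dvd_card' (G := C) 2 (by rw [hC14]; norm_num)
  rw [orderOf_mk] at hc
  have hNt : N ≠ ⊤ := fun e => by rw [e, index_top] at hidx; omega
  have hsq : ¬ 7 ^ 2 ∣ Nat.card G := by rw [h]; norm_num
  obtain ⟨h14, hpos, hf, hsum⟩ := moved hsq hP hNt Nat.prime_two (by norm_num) hc hcC
  have h4 := Cfsg.Agent.S1016.four_dvd_moved hG _ hc hpos
  change 7 * 2 ∣ Nat.card {ω : G ⧸ N // c • ω ≠ ω} at h14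
  change 0 < Nat.card {ω : G ⧸ N // c • ω ≠ ω} at hpos
  change 0 < Nat.card {ω : G ⧸ N // c • ω = ω} at hf
  change Nat.card {ω : G ⧸ N // c • ω ≠ ω} + Nat.card {ω : G ⧸ N // c • ω = ω} = N.index at hsum
  change 4 ∣ Nat.card {ω : G ⧸ N // c • ω ≠ ω} at h4
  rw [hidx] at hsum
  have hf8 : Nat.card {ω : G ⧸ N // c • ω = ω} = 8 := by omega
  haveI : IsCyclic P := isCyclic_of_prime_card hP
  have hc2 : c * c = 1 := by rw [← pow_two, ← hc, pow_orderOf_eq_one]
  have hj : ∀ x : {x : G // x ∈ N ∧ IsConj c x}, x.1 = c := by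
    rintro ⟨x, hxN, hcx⟩
    have hxC := conj_mem_centralizer_of_fixed hsq (by norm_num) hP hc2 (by rw [hidx, hf8]; norm_num) hxN hcx
    have hxo : orderOf x = 2 := by
      obtain ⟨g, rfl⟩ := isConj_iff.1 hcx
      rw [← MulAut.conj_apply, MulEquiv.orderOf_eq, hc]
    obtain ⟨j, hj⟩ := mem_zpowers_iff.1
      (mem_zpowers_of_prime_mul (by norm_num) hC14 hP (le_centralizer P) le_rfl hcC hc hxC hxo)
    rcases Int.even_or_odd' j with ⟨l, rfl | rfl⟩
    · exfalso
      rw [zpow_mul, zpow_ofNat, pow_two, hc2, one_zpow] at hj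
      rw [← hj, orderOf_one] at hxo
      norm_num at hxo
    · show x = c
      rw [← hj, zpow_add, zpow_mul, zpow_ofNat, pow_two, hc2, one_zpow, one_mul, zpow_one]
  have hj1 : Nat.card {x : G // x ∈ N ∧ IsConj c x} ≤ 1 := by
    rw [Finite.card_le_one_iff_subsingleton]
    exact ⟨fun x y => Subtype.ext ((hj x).trans (hj y).symm)⟩
  have hcount := card_fixed_mul N c
  rw [hf8, hN28] at hcount
  have hd := h ▸ (centralizer ({c} : Set G)).card_subgroup_dvd_card
  interval_cases hq : Nat.card {x : G // x ∈ N ∧ IsConj c x}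
  · omega
  · rw [show Nat.card (centralizer ({c} : Set G)) = 224 by omega] at hd
    norm_num at hd

theorem ne_1080 (hG : ¬ IsMulCommutative G) : Nat.card G ≠ 1080 := by
  intro h
  haveI : Fact (Nat.Prime 5) := ⟨by norm_num⟩
  haveI : Fact (Nat.Prime 3) := ⟨by norm_num⟩
  obtain ⟨Q, k, i, hP, hk, hk1, hk2, hk3, hks, hidx, hNk, hNC, hi, hi1, h5C⟩ :=
    setup (p := 5) (m := 216) hG h (by norm_num) (by norm_num)
  have key : ∀ k ∈ Nat.divisors 216, k % 5 = 1 → k ≤ 1 ∨ k = 6 ∨ k = 36 ∨ k = 216 := by decide +kernel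
  rcases (key k (Nat.mem_divisors.2 ⟨hk, by norm_num⟩) hk1).resolve_left (by omega) with rfl | rfl | rfl
  · norm_num [Nat.factorial] at hk3
  swap
  · have hile := Nat.le_of_dvd (by norm_num) hi
    interval_cases i <;> omega
  set P : Subgroup G := (Q : Subgroup G) with hPdef
  set N := normalizer (P : Set G) with hNdef
  set C := centralizer (P : Set G) with hCdef
  have hN30 : Nat.card N = 30 := by omega
  have hile := Nat.le_of_dvd (by norm_num) hi
  have hiC : i = 2 ∧ Nat.card C = 5 * 3 := by interval_cases i <;> omega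
  obtain ⟨hi2, hC15⟩ := hiC
  obtain ⟨⟨c, hcC⟩, hc⟩ := exists_prime_orderOf_dvd_card' (G := C) 3 (by rw [hC15]; norm_num)
  rw [orderOf_mk] at hc
  have hNt : N ≠ ⊤ := fun e => by rw [e, index_top] at hidx; omega
  have hsq : ¬ 5 ^ 2 ∣ Nat.card G := by rw [h]; norm_num
  obtain ⟨h15, hpos, hf, hsum⟩ := moved hsq hP hNt Nat.prime_three (by norm_num) hc hcC
  change 5 * 3 ∣ Nat.card {ω : G ⧸ N // c • ω ≠ ω} at h15
  change 0 < Nat.card {ω : G ⧸ N // c • ω ≠ ω} at hpos
  change 0 < Nat.card {ω : G ⧸ N // c • ω = ω} at hf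
  change Nat.card {ω : G ⧸ N // c • ω ≠ ω} + Nat.card {ω : G ⧸ N // c • ω = ω} = N.index at hsum
  rw [hidx] at hsum
  haveI : IsCyclic P := isCyclic_of_prime_card hP
  have hCN : C ≤ N := centralizer_le_normalizer _
  have hjmem : ∀ x : {x : G // x ∈ N ∧ IsConj c x}, x.1 = c ∨ x.1 = c⁻¹ := by
    rintro ⟨x, hxN, hcx⟩
    have hxo : orderOf x = 3 := by
      obtain ⟨g, rfl⟩ := isConj_iff.1 hcx
      rw [← MulAut.conj_apply, MulEquiv.orderOf_eq, hc]
    have hxC : x ∈ C := by
      have hidx2 : C.relIndex N = 2 := by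
        have := (C.subgroupOf N).card_mul_index
        rw [Nat.card_congr (subgroupOfEquivOfLe hCN).toEquiv, hC15, hN30] at this
        show (C.subgroupOf N).index = 2
        omega
      have h' : x ^ 2 ∈ C := by
        obtain ⟨n, hn⟩ : ∃ n : N, (n : G) = x := ⟨⟨x, hxN⟩, rfl⟩
        have := mul_self_mem_of_index_two (H := C.subgroupOf N) hidx2 n
        rw [mem_subgroupOf] at this
        rw [pow_two, ← hn]
        simpa using this
      have h3 : x = (x ^ 2)⁻¹ := eq_inv_of_mul_eq_one_left (by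
        rw [← pow_succ', show 2 + 1 = orderOf x by rw [hxo], pow_orderOf_eq_one])
      rw [h3]; exact inv_mem h'
    obtain ⟨j, hj⟩ := mem_zpowers_iff.1
      (mem_zpowers_of_prime_mul (by norm_num) hC15 hP (le_centralizer P) le_rfl hcC hc hxC hxo)
    rw [← zpow_mod_orderOf, hc] at hj
    have h0 := Int.emod_nonneg j (by norm_num : (3 : ℤ) ≠ 0)
    have h1 := Int.emod_lt_of_pos j (by norm_num : (0 : ℤ) < 3)
    rcases (by omega : j % 3 = 0 ∨ j % 3 = 1 ∨ j % 3 = 2) with e | e | e
    · exfalso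
      norm_num [e] at hj
      rw [← hj, orderOf_one] at hxo
      norm_num at hxo
    · left; show x = c; rw [← hj]; norm_num [e]
    · right; show x = c⁻¹
      rw [← hj]; norm_num [e]
      exact eq_inv_of_mul_eq_one_left (by rw [← pow_succ, show 2 + 1 = orderOf c by rw [hc], pow_orderOf_eq_one])
  have hj2 : Nat.card {x : G // x ∈ N ∧ IsConj c x} ≤ 2 := by
    classical
    have h' : Nat.card {x : G // x ∈ N ∧ IsConj c x} ≤ Nat.card ({c, c⁻¹} : Set G) :=
      Nat.card_le_card_of_injective (fun x => (⟨x.1, by simpa using hjmem x⟩ : ({c, c⁻¹} : Set G)))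
        fun a b e => Subtype.ext (congrArg Subtype.val e :)
    refine h'.trans ?_
    rw [Nat.card_coe_set_eq]
    exact (Set.ncard_insert_le _ _).trans (by rw [Set.ncard_singleton])
  set H := centralizer ({c} : Set G) with hHdef
  have hc1 : c ≠ 1 := fun e => by rw [e, orderOf_one] at hc; norm_num at hc
  have hHt : H ≠ ⊤ := Cfsg.Agent.S1016.centralizer_singleton_ne_top hG hc1
  have hcount := card_fixed_mul N c
  rw [hN30] at hcount
  have hd : Nat.card H ∣ 1080 := h ▸ H.card_subgroup_dvd_card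
  have hHmul := H.card_mul_index
  rw [h] at hHmul
  have hfac := two_mul_card_dvd_factorial hG H hHt
  rw [h] at hfac
  change _ = Nat.card H * _ at hcount
  rcases (by omega : Nat.card {ω : G ⧸ N // c • ω = ω} = 21 ∨ Nat.card {ω : G ⧸ N // c • ω = ω} = 6) with ef | ef <;>
    rw [ef] at hcount <;> interval_cases hq : Nat.card {x : G // x ∈ N ∧ IsConj c x} <;> try omega
  · rw [show Nat.card H = 630 by omega] at hd; norm_num at hd
  · rw [show Nat.card H = 315 by omega] at hd; norm_num at hd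
  · rw [show H.index = 6 by rw [show Nat.card H = 180 by omega] at hHmul; omega] at hfac
    norm_num [Nat.factorial] at hfac
  -- `c` is inverted, so its normaliser is larger
  have hH90 : Nat.card H = 90 := by omega
  obtain ⟨x, hxN, hcx, hxc⟩ : ∃ x, x ∈ N ∧ IsConj c x ∧ x ≠ c := by
    by_contra hcon
    push Not at hcon
    have : Nat.card {x : G // x ∈ N ∧ IsConj c x} ≤ 1 := by
      rw [Finite.card_le_one_iff_subsingleton]
      exact ⟨fun a b => Subtype.ext ((hcon a a.2.1 a.2.2).trans (hcon b b.2.1 b.2.2).symm)⟩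
    omega
  have hxi : x = c⁻¹ := (hjmem ⟨x, hxN, hcx⟩).resolve_left hxc
  obtain ⟨g, hg⟩ := isConj_iff.1 hcx
  set M := normalizer ((zpowers c : Subgroup G) : Set G) with hMdef
  have hgM : g ∈ M := by
    rw [hMdef, mem_normalizer_iff_map_conj_eq, MonoidHom.map_zpowers]
    show zpowers (g * c * g⁻¹) = zpowers c
    rw [hg, hxi, zpowers_inv]
  have hgH : g ∉ H := fun hgH => by
    rw [hHdef, mem_centralizer_singleton_iff] at hgH
    apply hxc
    rw [← hg, hgH, mul_inv_cancel_right]
  have hHM : H ≤ M := by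
    intro y hy
    rw [hHdef, mem_centralizer_singleton_iff] at hy
    rw [hMdef, mem_normalizer_iff_map_conj_eq, MonoidHom.map_zpowers]
    show zpowers (y * c * y⁻¹) = zpowers c
    rw [hy, mul_inv_cancel_right]
  have hMne : M ≠ ⊤ := by
    intro e
    have hn : (zpowers c).Normal := normalizer_eq_top_iff.1 e
    rcases hn.eq_bot_or_eq_top with hb | ht
    · exact hc1 (zpowers_eq_bot.1 hb)
    · have : Nat.card (zpowers c) = 1080 := by rw [ht, card_top, h]
      rw [Nat.card_zpowers, hc] at this; omega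
  have hMH := relIndex_mul_index hHM
  have hrel : H.relIndex M ≠ 1 := fun e => hgH (relIndex_eq_one.1 e hgM)
  have hH12 : H.index = 12 := by rw [hH90] at hHmul; omega
  rw [hH12] at hMH
  have hMi : 2 ≤ M.index := by
    have : M.index ≠ 1 := fun e => hMne (index_eq_one.1 e)
    have : M.index ≠ 0 := index_ne_zero_of_finite
    omega
  have hrel0 : H.relIndex M ≠ 0 := fun e => by rw [e, zero_mul] at hMH; omega
  have hM6 : M.index ≤ 6 := by
    by_contra hgt
    have : 2 * M.index ≤ H.relIndex M * M.index := Nat.mul_le_mul_right _ (by omega)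
    omega
  have hfac2 := two_mul_card_dvd_factorial hG M hMne
  rw [h] at hfac2
  interval_cases hMx : M.index <;> norm_num [Nat.factorial] at hfac2

end Cfsg.Agent.Lib.SmallSimple.Small1092
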