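import Cfsg.Agent.S1016
import Cfsg.Agent.Lib.SmallSimple.FixCount
import Cfsg.Agent.Lib.SmallSimple.Order459648
import Cfsg.Agent.Lib.SmallSimple.PrimeDegree

/-!
Sylow subgroups of prime order in a small simple group: normalisers, centralisers and fixed cosets.
-/

set_option autoImplicit false

namespace Cfsg.Agent.Lib.SmallSimple.Small1092

open Subgroup Cfsg.Agent.Lib.SmallSimple.FixCount

variable {G : Type*} [Group G] [Finite G] [IsSimpleGroup G]

/-- The number of Sylow subgroups, the orders of normaliser and centraliser. -/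
theorem setup (hG : ¬ IsMulCommutative G) {n p m : ℕ} [Fact p.Prime] (h : Nat.card G = n) (hn : n = p * m)
    (hm : ¬ p ∣ m) :
    ∃ (Q : Sylow p G) (k i : ℕ), Nat.card (Q : Subgroup G) = p ∧ k ∣ m ∧ k % p = 1 ∧ 1 < k ∧
      2 * n ∣ k.factorial ∧ k = Nat.card (Sylow p G) ∧
      (normalizer ((Q : Subgroup G) : Set G)).index = k ∧
      Nat.card (normalizer ((Q : Subgroup G) : Set G)) * k = n ∧
      Nat.card (normalizer ((Q : Subgroup G) : Set G)) = Nat.card (centralizer ((Q : Subgroup G) : Set G)) * i ∧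
      i ∣ p - 1 ∧ i ≠ 1 ∧ p ∣ Nat.card (centralizer ((Q : Subgroup G) : Set G)) := by
  obtain ⟨Q⟩ : Nonempty (Sylow p G) := inferInstance
  have hd : p ∣ Nat.card G := ⟨m, h.trans hn⟩
  obtain ⟨h1, h2, h3⟩ := card_sylow_facts (p := p) hG hd
  have hP : Nat.card (Q : Subgroup G) = p := by
    simpa using card_sylow_subgroup Q (k := 1) (m := m) (by rw [h, hn, pow_one]) hm
  haveI : IsCyclic (Q : Subgroup G) := isCyclic_of_prime_card hP
  obtain ⟨i, hi, hNC⟩ := exists_normalizer_index (Q : Subgroup G) hP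
  have hidx : (Q : Subgroup G).index = m := by
    have := (Q : Subgroup G).card_mul_index
    rw [hP, h, hn] at this
    exact Nat.eq_of_mul_eq_mul_left (Fact.out : p.Prime).pos this
  have hN := Q.card_eq_index_normalizer
  refine ⟨Q, Nat.card (Sylow p G), i, hP, hidx ▸ Q.card_dvd_index, h2, h1, h ▸ h3, rfl, hN.symm, ?_, hNC, hi, ?_, ?_⟩
  · rw [hN, ← h]; exact card_mul_index _
  · rintro rfl
    rw [mul_one] at hNC
    exact not_normalizer_le_centralizer hG Q hd
      (eq_of_le_of_card_ge (centralizer_le_normalizer _) hNC.le).ge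
  · have hle : (Q : Subgroup G) ≤ centralizer ((Q : Subgroup G) : Set G) := le_centralizer _
    have hdd := card_dvd_of_le hle
    rw [hP] at hdd; exact hdd

/-- A centralised element of prime order `r ≠ p` moves a multiple of `p r` conjugates of `P`. -/
theorem moved {p r : ℕ} [hp : Fact p.Prime] (hsq : ¬ p ^ 2 ∣ Nat.card G) {P : Subgroup G}
    (hP : Nat.card P = p) (hN : normalizer (P : Set G) ≠ ⊤) (hr : r.Prime) (hrp : r ≠ p) {c : G}
    (hc : orderOf c = r) (hcC : c ∈ centralizer (P : Set G)) :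
    p * r ∣ Nat.card {ω : G ⧸ normalizer (P : Set G) // c • ω ≠ ω} ∧
      0 < Nat.card {ω : G ⧸ normalizer (P : Set G) // c • ω ≠ ω} ∧
      0 < Nat.card {ω : G ⧸ normalizer (P : Set G) // c • ω = ω} ∧
      Nat.card {ω : G ⧸ normalizer (P : Set G) // c • ω ≠ ω} +
        Nat.card {ω : G ⧸ normalizer (P : Set G) // c • ω = ω} = (normalizer (P : Set G)).index := by
  haveI : IsCyclic P := isCyclic_of_prime_card hP
  have hCN : centralizer (P : Set G) ≤ normalizer (P : Set G) := centralizer_le_normalizer _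
  obtain ⟨h1, h2, h3⟩ := moved_facts hsq hP ((le_centralizer P).trans hCN) hN hr hrp hc hcC
    fun n hn => hCN (Cfsg.Agent.S1016.conj_mem_centralizer hcC hn)
  refine ⟨h1, h2, Nat.card_pos_iff.2 ⟨⟨⟨((1 : G) : G ⧸ normalizer (P : Set G)), ?_⟩⟩, inferInstance⟩, h3⟩
  show ((c * 1 : G) : G ⧸ normalizer (P : Set G)) = _
  rw [QuotientGroup.eq]
  simpa using inv_mem (hCN hcC)

/-- When an involution centralising `P` fixes many cosets, all its conjugates in `N(P)` centralise `P`. -/
theorem conj_mem_centralizer_of_fixed {p : ℕ} [Fact p.Prime] {P : Subgroup G} (hsq : ¬ p ^ 2 ∣ Nat.card G)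
    (hp2 : p ≠ 2) (hP : Nat.card P = p) {c x : G} (hc2 : c * c = 1)
    (hbig : (normalizer (P : Set G)).index <
      p * (Nat.card {ω : G ⧸ normalizer (P : Set G) // c • ω = ω} - 1) + 1)
    (hx : x ∈ normalizer (P : Set G)) (hcx : IsConj c x) : x ∈ centralizer (P : Set G) := by
  by_contra hxC
  obtain ⟨g, hg⟩ := isConj_iff.1 hcx
  have hx2 : x * x = 1 := by rw [← hg, conj_mul, hc2, mul_one, mul_inv_cancel]
  have hb := fixed_bound hsq hp2 hP le_rfl fun z hz => inverts_of_not_mem hP hx hx2 hxC hz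
  rw [card_fixed_eq hcx] at hb
  have h0 : (normalizer (P : Set G)).index ≠ 0 := index_ne_zero_of_finite
  omega

/-- The elements of order `r` in a subgroup of order `p r` centralising a group of order `p`. -/
theorem mem_zpowers_of_prime_mul {p r : ℕ} [hp : Fact p.Prime] [hr : Fact r.Prime] (hrp : r ≠ p) {C : Subgroup G}
    (hC : Nat.card C = p * r) {P : Subgroup G} (hP : Nat.card P = p) (hPC : P ≤ C)
    (hcent : C ≤ centralizer (P : Set G)) {c x : G} (hcC : c ∈ C) (hc : orderOf c = r) (hxC : x ∈ C)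
    (hx : orderOf x = r) : x ∈ zpowers c := by
  haveI : IsCyclic P := isCyclic_of_prime_card hP
  obtain ⟨a, ha⟩ := (Subgroup.isCyclic_iff_exists_zpowers_eq_top P).1 inferInstance
  have hoa : orderOf a = p := by rw [← Nat.card_zpowers, ha, hP]
  have haC : a ∈ C := hPC (ha ▸ mem_zpowers a)
  have hcomm : Commute a c := mem_centralizer_iff.1 (hcent hcC) a (ha ▸ mem_zpowers a)
  have hoac : orderOf (a * c) = p * r := by
    rw [hcomm.orderOf_mul_eq_mul_orderOf_of_coprime
      (by rw [hoa, hc]; exact (Nat.coprime_primes hp.out hr.out).2 (Ne.symm hrp)), hoa, hc]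
  have hgen : zpowers (a * c) = C := eq_of_le_of_card_ge (zpowers_le.2 (mul_mem haC hcC))
    (by rw [Nat.card_zpowers, hoac, hC])
  obtain ⟨j, hj⟩ := mem_zpowers_iff.1 (hgen ▸ hxC : x ∈ zpowers (a * c))
  have h1 : (a * c) ^ (j * (r : ℤ)) = 1 := by rw [zpow_mul, hj, zpow_natCast, ← hx, pow_orderOf_eq_one]
  have h2 := orderOf_dvd_iff_zpow_eq_one.2 h1
  rw [hoac] at h2
  push_cast at h2
  have h3 : (p : ℤ) ∣ j := (Int.mul_dvd_mul_iff_right (by exact_mod_cast hr.out.ne_zero)).1 h2
  obtain ⟨k, rfl⟩ := h3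
  refine mem_zpowers_iff.2 ⟨(p : ℤ) * k, ?_⟩
  rw [← hj, hcomm.mul_zpow, zpow_mul a, zpow_natCast, ← hoa, pow_orderOf_eq_one, one_zpow, one_mul]

end Cfsg.Agent.Lib.SmallSimple.Small1092
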